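import Mathlib

/-! Chevalley-Warning for quadratic maps on `F₂`-spaces. -/

set_option autoImplicit false

namespace Cfsg.Agent.H18

open MvPolynomial

theorem zmod2_cases (x : ZMod 2) : x = 0 ∨ x = 1 := by
  revert x; decide

section
variable {L : Type*} [AddCommGroup L] [Module (ZMod 2) L]

/-- Polynomial representation of a quadratic function. -/
theorem exists_poly {σ : Type*} [Fintype σ] [DecidableEq σ] (e : σ → L) (q : L → ZMod 2)
    (Bq : L → L → ZMod 2)
    (hB1 : ∀ a b c, Bq (a + b) c = Bq a c + Bq b c)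
    (hB2 : ∀ a b c, Bq a (b + c) = Bq a b + Bq a c)
    (hf : ∀ x y, q (x + y) = q x + q y + Bq x y)
    (s : Finset σ) :
    ∃ P : MvPolynomial σ (ZMod 2), P.totalDegree ≤ 2 ∧
      ∀ x : σ → ZMod 2, eval x P = q (∑ a ∈ s, x a • e a) := by
  classical
  have hB20 : ∀ a, Bq a 0 = 0 := by
    intro a
    have := hB2 a 0 0
    simpa using this
  have hB10 : ∀ a, Bq 0 a = 0 := by
    intro a
    have := hB1 0 0 a
    simpa using this
  have hq0 : q 0 = 0 := by
    have := hf 0 0
    rw [add_zero, hB20] at this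
    simpa using this
  have hsum : ∀ (t : Finset σ) (u : L) (x : σ → ZMod 2),
      Bq u (∑ a ∈ t, x a • e a) = ∑ a ∈ t, Bq u (e a) * x a := by
    intro t u x
    induction t using Finset.induction_on with
    | empty => simp [hB20]
    | insert c t hc ih =>
      rw [Finset.sum_insert hc, Finset.sum_insert hc, hB2, ih]
      congr 1
      rcases zmod2_cases (x c) with h | h <;> simp [h, hB20]
  induction s using Finset.induction_on with
  | empty => exact ⟨0, by simp, by simp [hq0]⟩
  | insert c s hc ih =>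
    obtain ⟨P, hP, hPe⟩ := ih
    refine ⟨P + X c * (C (q (e c)) + ∑ a ∈ s, C (Bq (e c) (e a)) * X a), ?_, ?_⟩
    · refine (totalDegree_add _ _).trans (max_le hP ?_)
      refine (totalDegree_mul _ _).trans ?_
      have h1 : (X c : MvPolynomial σ (ZMod 2)).totalDegree = 1 := totalDegree_X c
      have h2 : (C (q (e c)) + ∑ a ∈ s, C (Bq (e c) (e a)) * X a :
          MvPolynomial σ (ZMod 2)).totalDegree ≤ 1 := by
        refine (totalDegree_add _ _).trans (max_le (by simp) ?_)
        refine (totalDegree_finsetSum _ _).trans (Finset.sup_le ?_)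
        intro a _
        refine (totalDegree_mul _ _).trans ?_
        simp
      omega
    · intro x
      rw [Finset.sum_insert hc, map_add, hPe, map_mul, eval_X, map_add, eval_C, map_sum]
      simp only [map_mul, eval_C, eval_X]
      rcases zmod2_cases (x c) with h | h
      · simp [h]
      · rw [h, one_smul, one_mul, hf, hsum]
        ring

variable [Finite L]

/-- Chevalley-Warning for quadratic maps. -/
theorem cw_core {W : Type*} [AddCommGroup W] [Module (ZMod 2) W] [Finite W] (f : L → W)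
    (B : L → L → W)
    (hB1 : ∀ a b c, B (a + b) c = B a c + B b c)
    (hB2 : ∀ a b c, B a (b + c) = B a b + B a c)
    (hf : ∀ x y, f (x + y) = f x + f y + B x y)
    (hdim : 2 * Module.finrank (ZMod 2) W < Module.finrank (ZMod 2) L) :
    ∃ x : L, x ≠ 0 ∧ f x = 0 := by
  classical
  haveI : Fact (Nat.Prime 2) := ⟨Nat.prime_two⟩
  haveI : Module.Finite (ZMod 2) L := Module.Finite.of_finite
  haveI : Module.Finite (ZMod 2) W := Module.Finite.of_finite
  let b := Module.finBasis (ZMod 2) L
  let c := Module.finBasis (ZMod 2) W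
  let q : Fin (Module.finrank (ZMod 2) W) → L → ZMod 2 := fun i x => c.coord i (f x)
  let Bq : Fin (Module.finrank (ZMod 2) W) → L → L → ZMod 2 := fun i x y => c.coord i (B x y)
  have hpoly : ∀ i, ∃ P : MvPolynomial (Fin (Module.finrank (ZMod 2) L)) (ZMod 2), P.totalDegree ≤ 2 ∧
      ∀ x : Fin (Module.finrank (ZMod 2) L) → ZMod 2, eval x P = q i (∑ a ∈ Finset.univ, x a • b a) := by
    intro i
    apply exists_poly (fun a => b a) (q i) (Bq i)
    · intro a b' c'
      simp [Bq, hB1]
    · intro a b' c'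
      simp [Bq, hB2]
    · intro x y
      simp [q, Bq, hf]
  choose P hP1 hP2 using hpoly
  have hdeg : ∑ i ∈ (Finset.univ : Finset (Fin (Module.finrank (ZMod 2) W))), (P i).totalDegree
      < Fintype.card (Fin (Module.finrank (ZMod 2) L)) := by
    rw [Fintype.card_fin]
    calc ∑ i ∈ (Finset.univ : Finset (Fin (Module.finrank (ZMod 2) W))), (P i).totalDegree
        ≤ ∑ i ∈ (Finset.univ : Finset (Fin (Module.finrank (ZMod 2) W))), 2 :=
          Finset.sum_le_sum (fun i _ => hP1 i)
      _ = 2 * Module.finrank (ZMod 2) W := by simp [mul_comm]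
      _ < _ := hdim
  have hdvd := char_dvd_card_solutions_of_sum_lt (K := ZMod 2) 2 (s := Finset.univ) (f := P) hdeg
  have hq0 : f 0 = 0 := by
    have h1 := hB1 0 0 0
    have h2 : B 0 0 = 0 := by simpa using h1
    have h3 := hf 0 0
    rw [add_zero, h2] at h3
    simpa using h3
  let x0 : {x : Fin (Module.finrank (ZMod 2) L) → ZMod 2 // ∀ i ∈ Finset.univ, eval x (P i) = 0} :=
    ⟨0, by
      intro i _
      rw [hP2]
      simp [q, hq0]⟩
  have hdvd' : 2 ∣ Nat.card {x : Fin (Module.finrank (ZMod 2) L) → ZMod 2 //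
      ∀ i ∈ Finset.univ, eval x (P i) = 0} := by
    rw [Nat.card_eq_fintype_card]
    convert hdvd
  have hcard : 1 < Nat.card {x : Fin (Module.finrank (ZMod 2) L) → ZMod 2 //
      ∀ i ∈ Finset.univ, eval x (P i) = 0} := by
    haveI : Nonempty {x : Fin (Module.finrank (ZMod 2) L) → ZMod 2 //
      ∀ i ∈ Finset.univ, eval x (P i) = 0} := ⟨x0⟩
    have hpos : 0 < Nat.card {x : Fin (Module.finrank (ZMod 2) L) → ZMod 2 //
        ∀ i ∈ Finset.univ, eval x (P i) = 0} := Nat.card_pos
    have := Nat.le_of_dvd hpos hdvd'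
    omega
  haveI := Finite.one_lt_card_iff_nontrivial.mp hcard
  obtain ⟨y, hy⟩ := exists_ne x0
  refine ⟨b.equivFun.symm y.1, ?_, ?_⟩
  · intro h
    apply hy
    apply Subtype.ext
    have h1 : b.equivFun.symm y.1 = b.equivFun.symm 0 := by rw [h, map_zero]
    exact b.equivFun.symm.injective h1
  · apply c.ext_elem
    intro i
    have h1 := y.2 i (Finset.mem_univ i)
    rw [hP2] at h1
    have h2 : q i (b.equivFun.symm y.1) = 0 := by
      rw [Module.Basis.equivFun_symm_apply]
      exact h1
    simpa [q] using h2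

end

/-- The dimension bound. -/
theorem lemA {Y W : Type*} [AddCommGroup Y] [AddCommGroup W] [Finite Y] [Finite W]
    (hY : ∀ y : Y, 2 • y = 0) (hW : ∀ w : W, 2 • w = 0) (f : Y → W) (B : Y → Y → W)
    (hB1 : ∀ a b c, B (a + b) c = B a c + B b c)
    (hB2 : ∀ a b c, B a (b + c) = B a b + B a c)
    (hf : ∀ x y, f (x + y) = f x + f y + B x y)
    (Y₀ : AddSubgroup Y) (hY₀ : ∀ y, f y = 0 ↔ y ∈ Y₀) :
    Nat.card Y ≤ Nat.card Y₀ * Nat.card W ^ 2 := by
  classical
  letI mY : Module (ZMod 2) Y := AddCommGroup.zmodModule hY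
  letI mW : Module (ZMod 2) W := AddCommGroup.zmodModule hW
  haveI : Module.Finite (ZMod 2) Y := Module.Finite.of_finite
  haveI : Module.Finite (ZMod 2) W := Module.Finite.of_finite
  let Y₁ : Submodule (ZMod 2) Y :=
    { carrier := Y₀
      add_mem' := fun ha hb => Y₀.add_mem ha hb
      zero_mem' := Y₀.zero_mem
      smul_mem' := by
        intro c x hx
        rcases zmod2_cases c with h | h
        · rw [h, zero_smul]
          exact Y₀.zero_mem
        · rw [h, one_smul]
          exact hx }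
  obtain ⟨L, hL⟩ := Submodule.exists_isCompl Y₁
  have hfin := Submodule.finrank_add_eq_of_isCompl hL
  have hdim : Module.finrank (ZMod 2) L ≤ 2 * Module.finrank (ZMod 2) W := by
    by_contra hlt
    push Not at hlt
    obtain ⟨x, hx, hfx⟩ := cw_core (L := L) (W := W) (fun x => f x) (fun x y => B x y)
      (fun a b c => hB1 a b c) (fun a b c => hB2 a b c) (fun x y => hf x y) hlt
    apply hx
    have h1 : (x : Y) ∈ Y₁ := (hY₀ _).mp hfx
    have h2 : (x : Y) ∈ Y₁ ⊓ L := ⟨h1, x.2⟩
    rw [hL.inf_eq_bot] at h2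
    exact Subtype.ext ((Submodule.mem_bot _).mp h2)
  have hc1 : Nat.card Y = 2 ^ Module.finrank (ZMod 2) Y := by
    rw [Module.natCard_eq_pow_finrank (K := ZMod 2)]
    simp
  have hc2 : Nat.card Y₀ = 2 ^ Module.finrank (ZMod 2) Y₁ := by
    have : Nat.card Y₀ = Nat.card Y₁ := rfl
    rw [this, Module.natCard_eq_pow_finrank (K := ZMod 2)]
    simp
  have hc3 : Nat.card W = 2 ^ Module.finrank (ZMod 2) W := by
    rw [Module.natCard_eq_pow_finrank (K := ZMod 2)]
    simp
  rw [hc1, hc2, hc3, ← hfin, pow_add, ← pow_mul, mul_comm (Module.finrank (ZMod 2) W) 2]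
  exact Nat.mul_le_mul_left _ (Nat.pow_le_pow_right (by norm_num) hdim)

/-- Multiplicative version of the dimension bound. -/
theorem lemA_mul {Y W : Type*} [Group Y] [Group W] [Finite Y] [Finite W]
    (hYc : ∀ a b : Y, a * b = b * a) (hWc : ∀ a b : W, a * b = b * a)
    (hY : ∀ y : Y, y ^ 2 = 1) (hW : ∀ w : W, w ^ 2 = 1) (f : Y → W) (B : Y → Y → W)
    (hB1 : ∀ a b c, B (a * b) c = B a c * B b c)
    (hB2 : ∀ a b c, B a (b * c) = B a b * B a c)
    (hf : ∀ x y, f (x * y) = f x * f y * B x y)
    (Y₀ : Subgroup Y) (hY₀ : ∀ y, f y = 1 ↔ y ∈ Y₀) :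
    Nat.card Y ≤ Nat.card Y₀ * Nat.card W ^ 2 := by
  letI cY : CommGroup Y := { (inferInstance : Group Y) with mul_comm := hYc }
  letI cW : CommGroup W := { (inferInstance : Group W) with mul_comm := hWc }
  let Y₁ : AddSubgroup (Additive Y) :=
    { carrier := {y | y.toMul ∈ Y₀}
      add_mem' := fun {a b} ha hb => Y₀.mul_mem ha hb
      zero_mem' := Y₀.one_mem
      neg_mem' := fun {a} ha => Y₀.inv_mem ha }
  have h := lemA (Y := Additive Y) (W := Additive W)
    (fun y => by
      show Additive.ofMul (y.toMul ^ 2) = 0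
      rw [hY]
      rfl)
    (fun y => by
      show Additive.ofMul (y.toMul ^ 2) = 0
      rw [hW]
      rfl)
    (fun y => Additive.ofMul (f y.toMul))
    (fun a b => Additive.ofMul (B a.toMul b.toMul))
    (fun a b c => congrArg Additive.ofMul (hB1 a.toMul b.toMul c.toMul))
    (fun a b c => congrArg Additive.ofMul (hB2 a.toMul b.toMul c.toMul))
    (fun a b => congrArg Additive.ofMul (hf a.toMul b.toMul))
    Y₁ (fun y => by
      show Additive.ofMul (f y.toMul) = 0 ↔ y.toMul ∈ Y₀
      rw [← hY₀]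
      rfl)
  exact h

end Cfsg.Agent.H18
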