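import Mathlib

/-! The Baer correspondence in class two and exponent prime to two. -/

set_option autoImplicit false
set_option linter.unusedSectionVars false

namespace Cfsg.Agent.H18

open scoped commutatorElement

section Baer
variable {G : Type*} [Group G]

/-- Commutators are central. -/
def ClassLeTwo (G : Type*) [Group G] : Prop := ∀ x y z : G, ⁅x, y⁆ * z = z * ⁅x, y⁆

theorem cl2_mul_left (hc : ClassLeTwo G) (x y z : G) : ⁅x * y, z⁆ = ⁅x, z⁆ * ⁅y, z⁆ := by
  have h1 : ⁅x * y, z⁆ = x * ⁅y, z⁆ * z * x⁻¹ * z⁻¹ := by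
    simp only [commutatorElement_def]
    group
  have h2 : x * ⁅y, z⁆ = ⁅y, z⁆ * x := (hc y z x).symm
  rw [h1, h2, hc x z ⁅y, z⁆, commutatorElement_def x z]
  group

theorem cl2_mul_right (hc : ClassLeTwo G) (x y z : G) : ⁅x, y * z⁆ = ⁅x, y⁆ * ⁅x, z⁆ := by
  have h1 : ∀ a b : G, ⁅a, b⁆ = ⁅b, a⁆⁻¹ := by
    intro a b
    simp only [commutatorElement_def]
    group
  rw [h1, cl2_mul_left hc, mul_inv_rev, ← h1, ← h1]
  have h2 : ⁅x, z⁆ * ⁅x, y⁆ = ⁅x, y⁆ * ⁅x, z⁆ := hc x z _
  exact h2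

theorem cl2_commute (hc : ClassLeTwo G) (x y : G) (z : G) : Commute ⁅x, y⁆ z := hc x y z

theorem cl2_pow_central (hc : ClassLeTwo G) (x y z : G) (n : ℕ) : ⁅x, y⁆ ^ n * z = z * ⁅x, y⁆ ^ n :=
  ((cl2_commute hc x y z).pow_left n)

theorem cl2_comm_central_right (c w z : G) (hcc : ∀ t : G, c * t = t * c) (hc : ClassLeTwo G) :
    ⁅z, w * c⁆ = ⁅z, w⁆ := by
  have h1 : ⁅z, c⁆ = 1 := by
    rw [commutatorElement_eq_one_iff_mul_comm]
    exact (hcc z).symm
  rw [cl2_mul_right hc, h1, mul_one]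

theorem cl2_comm_central_left (c w z : G) (hcc : ∀ t : G, c * t = t * c) (hc : ClassLeTwo G) :
    ⁅w * c, z⁆ = ⁅w, z⁆ := by
  have h1 : ⁅c, z⁆ = 1 := by
    rw [commutatorElement_eq_one_iff_mul_comm]
    exact hcc z
  rw [cl2_mul_left hc, h1, mul_one]

/-- Type carrying the Baer product. -/
@[ext] structure BaerType (G : Type*) where
  /-- The underlying element. -/
  val : G

/-- The identity equivalence. -/
def baerEquiv (G : Type*) : BaerType G ≃ G where
  toFun := BaerType.val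
  invFun := BaerType.mk
  left_inv _ := rfl
  right_inv _ := rfl

/-- The Baer product. -/
def baerStar (h : ℕ) (x y : G) : G := x * y * ⁅y, x⁆ ^ h

theorem baerStar_assoc (hc : ClassLeTwo G) (h : ℕ) (x y z : G) :
    baerStar h (baerStar h x y) z = baerStar h x (baerStar h y z) := by
  unfold baerStar
  have c1 : ∀ t : G, ⁅y, x⁆ ^ h * t = t * ⁅y, x⁆ ^ h := fun t => cl2_pow_central hc y x t h
  have c2 : ∀ t : G, ⁅z, y⁆ ^ h * t = t * ⁅z, y⁆ ^ h := fun t => cl2_pow_central hc z y t h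
  have c3 : ∀ t : G, ⁅z, x⁆ ^ h * t = t * ⁅z, x⁆ ^ h := fun t => cl2_pow_central hc z x t h
  have e1 : ⁅z, x * y * ⁅y, x⁆ ^ h⁆ = ⁅z, x⁆ * ⁅z, y⁆ := by
    rw [cl2_comm_central_right _ _ _ c1 hc, cl2_mul_right hc]
  have e2 : ⁅y * z * ⁅z, y⁆ ^ h, x⁆ = ⁅y, x⁆ * ⁅z, x⁆ := by
    rw [cl2_comm_central_left _ _ _ c2 hc, cl2_mul_left hc]
  rw [e1, e2, (cl2_commute hc z x ⁅z, y⁆).mul_pow, (cl2_commute hc y x ⁅z, x⁆).mul_pow]
  have l1 : x * y * ⁅y, x⁆ ^ h * z = x * y * z * ⁅y, x⁆ ^ h := by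
    rw [mul_assoc (x * y), c1 z, ← mul_assoc]
  rw [l1]
  have l2 : x * (y * z * ⁅z, y⁆ ^ h) = x * y * z * ⁅z, y⁆ ^ h := by group
  rw [l2]
  have l3 : ⁅z, x⁆ ^ h * ⁅z, y⁆ ^ h = ⁅z, y⁆ ^ h * ⁅z, x⁆ ^ h := c3 _
  have l4 : ⁅y, x⁆ ^ h * (⁅z, y⁆ ^ h * ⁅z, x⁆ ^ h) = ⁅z, y⁆ ^ h * (⁅y, x⁆ ^ h * ⁅z, x⁆ ^ h) := by
    rw [← mul_assoc, c1, mul_assoc]
  simp only [mul_assoc]
  rw [l3, l4]

theorem baerStar_comm (hc : ClassLeTwo G) (h : ℕ) (hh : ∀ x y : G, ⁅x, y⁆ ^ (2 * h) = ⁅x, y⁆) (x y : G) :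
    baerStar h x y = baerStar h y x := by
  unfold baerStar
  have e1 : ⁅x, y⁆ = ⁅y, x⁆⁻¹ := by
    simp only [commutatorElement_def]
    group
  have e2 : x * y = ⁅x, y⁆ * (y * x) := by
    simp only [commutatorElement_def]
    group
  have e3 : ⁅y, x⁆ = ⁅y, x⁆ ^ h * ⁅y, x⁆ ^ h := by
    rw [← pow_add, ← two_mul, hh]
  have e4 : ⁅y, x⁆⁻¹ * (y * x) = (y * x) * ⁅y, x⁆⁻¹ := (Commute.inv_left (cl2_commute hc y x (y * x))).eq
  rw [e2, e1, e4, inv_pow, mul_assoc]
  congr 1
  generalize ⁅y, x⁆ ^ h = a at e3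
  rw [e3]
  group

/-- The Baer abelian group. -/
@[instance_reducible] def baerCommGroup (hc : ClassLeTwo G) (h : ℕ) (hh : ∀ x y : G, ⁅x, y⁆ ^ (2 * h) = ⁅x, y⁆) :
    CommGroup (BaerType G) where
  mul x y := ⟨baerStar h x.val y.val⟩
  mul_assoc x y z := BaerType.ext (baerStar_assoc hc h x.val y.val z.val)
  one := ⟨1⟩
  one_mul x := BaerType.ext (by
    show baerStar h 1 x.val = x.val
    simp [baerStar])
  mul_one x := BaerType.ext (by
    show baerStar h x.val 1 = x.val
    simp [baerStar])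
  inv x := ⟨x.val⁻¹⟩
  inv_mul_cancel x := BaerType.ext (by
    show baerStar h x.val⁻¹ x.val = 1
    have h1 : ⁅x.val, x.val⁻¹⁆ = 1 := commutatorElement_eq_one_iff_commute.2 (Commute.refl _).inv_right
    simp [baerStar, h1])
  mul_comm x y := BaerType.ext (baerStar_comm hc h hh x.val y.val)

theorem baer_mul_val (hc : ClassLeTwo G) (h : ℕ) (hh : ∀ x y : G, ⁅x, y⁆ ^ (2 * h) = ⁅x, y⁆) (x y : BaerType G) :
    (@HMul.hMul _ _ _ (@instHMul _ (baerCommGroup hc h hh).toMul) x y).val = baerStar h x.val y.val := rfl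

theorem baer_one_val (hc : ClassLeTwo G) (h : ℕ) (hh : ∀ x y : G, ⁅x, y⁆ ^ (2 * h) = ⁅x, y⁆) :
    (@OfNat.ofNat _ 1 (@One.toOfNat1 _ (baerCommGroup hc h hh).toOne) : BaerType G).val = 1 := rfl

theorem baer_pow_val (hc : ClassLeTwo G) (h : ℕ) (hh : ∀ x y : G, ⁅x, y⁆ ^ (2 * h) = ⁅x, y⁆) (x : BaerType G) (n : ℕ) :
    letI := baerCommGroup hc h hh
    ((x ^ n : BaerType G)).val = x.val ^ n := by
  letI := baerCommGroup hc h hh
  induction n with
  | zero => simpa using baer_one_val hc h hh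
  | succ n ih =>
    rw [pow_succ]
    show baerStar h _ _ = _
    have h1 : ⁅x.val, x.val ^ n⁆ = 1 := commutatorElement_eq_one_iff_commute.2 ((Commute.refl _).pow_right n)
    rw [ih, baerStar, pow_succ]
    simp [h1]

/-- An endomorphism of `G` is an endomorphism of the Baer group. -/
def baerMap (hc : ClassLeTwo G) (h : ℕ) (hh : ∀ x y : G, ⁅x, y⁆ ^ (2 * h) = ⁅x, y⁆) (f : G →* G) :
    letI := baerCommGroup hc h hh
    BaerType G →* BaerType G :=
  letI := baerCommGroup hc h hh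
  { toFun := fun x => ⟨f x.val⟩
    map_one' := BaerType.ext f.map_one
    map_mul' := by
      intro x y
      apply BaerType.ext
      show f (baerStar h x.val y.val) = baerStar h (f x.val) (f y.val)
      simp [baerStar, map_mul, map_pow, map_commutatorElement] }

theorem baerMap_val (hc : ClassLeTwo G) (h : ℕ) (hh : ∀ x y : G, ⁅x, y⁆ ^ (2 * h) = ⁅x, y⁆) (f : G →* G) (x : BaerType G) :
    (baerMap hc h hh f x).val = f x.val := rfl

end Baer

section Step
variable {X : Type*} [Group X] [Finite X]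

/-- Conjugation by an element normalizing `K`, as an endomorphism of `↥K`. -/
def cjEnd (K : Subgroup X) (g : X) (hg : g ∈ Subgroup.normalizer (K : Set X)) : ↥K →* ↥K where
  toFun x := ⟨g * x * g⁻¹, (Subgroup.mem_normalizer_iff.1 hg x).1 x.2⟩
  map_one' := by
    apply Subtype.ext
    simp
  map_mul' x y := by
    apply Subtype.ext
    simp only [Subgroup.coe_mul]
    group

theorem cjEnd_val (K : Subgroup X) (g : X) (hg : g ∈ Subgroup.normalizer (K : Set X)) (x : K) :
    ((cjEnd K g hg x : K) : X) = g * x * g⁻¹ := rfl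

/-- Thompson's `P × Q` step for groups of class at most two and exponent an odd prime. -/
theorem baer_step {p : ℕ} [hp : Fact p.Prime] (hp2 : p ≠ 2) (P Q K : Subgroup X) (hP : IsPGroup p P)
    (hQ : (Nat.card Q).Coprime p) (hPQ : P ≤ Subgroup.normalizer (Q : Set X)) (hK : IsPGroup p K)
    (hPK : P ≤ Subgroup.normalizer (K : Set X)) (hQK : Q ≤ Subgroup.normalizer (K : Set X))
    (hC : K ⊓ Subgroup.centralizer (P : Set X) ≤ Subgroup.centralizer (Q : Set X))
    (hexp : ∀ x ∈ K, x ^ p = 1) (hcl : ClassLeTwo K) : Q ≤ Subgroup.centralizer (K : Set X) := by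
  classical
  letI := Fintype.ofFinite Q
  obtain ⟨h, hh0⟩ : ∃ h : ℕ, 2 * h = p + 1 := by
    have : Odd p := hp.out.odd_of_ne_two hp2
    obtain ⟨k, hk⟩ := this
    exact ⟨k + 1, by omega⟩
  have hh : ∀ x y : K, ⁅x, y⁆ ^ (2 * h) = ⁅x, y⁆ := by
    intro x y
    have h1 : ⁅x, y⁆ ^ p = 1 := by
      apply Subtype.ext
      exact hexp _ (⁅x, y⁆).2
    rw [hh0, pow_succ, h1, one_mul]
  letI cG := baerCommGroup hcl h hh
  let c : Q → BaerType K →* BaerType K := fun q => baerMap hcl h hh (cjEnd K q (hQK q.2))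
  let T : BaerType K →* BaerType K := ∏ q : Q, c q
  have hT : ∀ x, T x = ∏ q : Q, c q x := by
    intro x
    simp only [T, MonoidHom.finsetProd_apply]
  -- the image of `T` is fixed by `Q`
  have hfix : ∀ (b : Q) (x : BaerType K), c b (T x) = T x := by
    intro b x
    rw [hT, map_prod]
    refine Fintype.prod_equiv (Equiv.mulLeft b) _ _ ?_
    intro a
    apply BaerType.ext
    apply Subtype.ext
    show (b : X) * (a * x.val * (a : X)⁻¹) * (b : X)⁻¹ = ((b * a : Q) : X) * x.val * ((b * a : Q) : X)⁻¹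
    simp only [Subgroup.coe_mul]
    group
  by_contra hcon
  have hnc : ∃ (b : Q) (y : K), (b : X) * y * (b : X)⁻¹ ≠ y := by
    by_contra hcon2
    push Not at hcon2
    apply hcon
    intro b hb
    rw [Subgroup.mem_centralizer_iff]
    intro y hy
    have h1 : b * y * b⁻¹ = y := hcon2 ⟨b, hb⟩ ⟨y, hy⟩
    calc y * b = b * y * b⁻¹ * b := by rw [h1]
      _ = b * y := by group
  obtain ⟨b, y, hby⟩ := hnc
  haveI hfin : Finite (BaerType K) := Finite.of_equiv _ (baerEquiv K).symm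
  have hnsurj : ¬ Function.Surjective T := by
    intro hs
    obtain ⟨x, hx⟩ := hs ⟨y⟩
    have h1 := hfix b x
    rw [hx] at h1
    apply hby
    have h2 := congrArg (fun z : BaerType K => ((z.val : K) : X)) h1
    exact h2
  have hninj : ¬ Function.Injective T := fun hi => hnsurj (Finite.injective_iff_surjective.1 hi)
  -- the action of `P`
  let cg : P → BaerType K →* BaerType K := fun g => baerMap hcl h hh (cjEnd K g (hPK g.2))
  have hequiv : ∀ (g : P) (x : BaerType K), T (cg g x) = cg g (T x) := by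
    intro g x
    rw [hT, hT, map_prod]
    let e : Q ≃ Q :=
      { toFun := fun q => ⟨(g : X) * q * (g : X)⁻¹, (Subgroup.mem_normalizer_iff.1 (hPQ g.2) q).1 q.2⟩
        invFun := fun q => ⟨(g : X)⁻¹ * q * g, by
          have h1 := (Subgroup.mem_normalizer_iff.1 (Subgroup.inv_mem _ (hPQ g.2)) q).1 q.2
          simpa using h1⟩
        left_inv := by
          intro q
          apply Subtype.ext
          show (g : X)⁻¹ * ((g : X) * q * (g : X)⁻¹) * g = q
          group
        right_inv := by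
          intro q
          apply Subtype.ext
          show (g : X) * ((g : X)⁻¹ * q * g) * (g : X)⁻¹ = q
          group }
    symm
    refine Fintype.prod_equiv e _ _ ?_
    intro q
    apply BaerType.ext
    apply Subtype.ext
    show (g : X) * ((q : X) * x.val * (q : X)⁻¹) * (g : X)⁻¹ =
      ((g : X) * q * (g : X)⁻¹) * ((g : X) * x.val * (g : X)⁻¹) * ((g : X) * q * (g : X)⁻¹)⁻¹
    group
  have hker : ∀ (g : P) (u : BaerType K), u ∈ T.ker → cg g u ∈ T.ker := by
    intro g u hu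
    rw [MonoidHom.mem_ker] at hu ⊢
    rw [hequiv, hu, map_one]
  letI act : MulAction P T.ker :=
    { smul := fun g u => ⟨cg g u, hker g u u.2⟩
      one_smul := by
        intro u
        apply Subtype.ext
        apply BaerType.ext
        apply Subtype.ext
        show ((1 : P) : X) * u.1.val * ((1 : P) : X)⁻¹ = u.1.val
        simp
      mul_smul := by
        intro g g' u
        apply Subtype.ext
        apply BaerType.ext
        apply Subtype.ext
        show ((g * g' : P) : X) * u.1.val * ((g * g' : P) : X)⁻¹ = (g : X) * ((g' : X) * u.1.val * (g' : X)⁻¹) * (g : X)⁻¹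
        simp only [Subgroup.coe_mul]
        group }
  have hsmul : ∀ (g : P) (u : T.ker), (((g • u : T.ker) : BaerType K).val : X) = (g : X) * u.1.val * (g : X)⁻¹ := fun _ _ => rfl
  haveI hfin2 : Finite T.ker := Subtype.finite
  have hmod := IsPGroup.card_modEq_card_fixedPoints hP (α := T.ker)
  have hcard : p ∣ Nat.card T.ker := by
    have h1 : Nat.card (BaerType K) = Nat.card K := Nat.card_congr (baerEquiv K)
    obtain ⟨n, hn⟩ := IsPGroup.iff_card.1 hK
    have h2 : Nat.card T.ker ∣ p ^ n := by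
      rw [← hn, ← h1]
      exact Subgroup.card_subgroup_dvd_card _
    obtain ⟨m, -, hm⟩ := (Nat.dvd_prime_pow hp.out).1 h2
    rw [hm]
    apply dvd_pow_self
    rintro rfl
    rw [pow_zero] at hm
    apply hninj
    rw [injective_iff_map_eq_one]
    intro a ha
    have h3 : Subsingleton T.ker := (Nat.card_eq_one_iff_unique.1 hm).1
    have h4 := Subsingleton.elim (⟨a, ha⟩ : T.ker) 1
    exact congrArg Subtype.val h4
  have hexu : ∃ u : T.ker, u ≠ 1 ∧ ∀ g : P, g • u = u := by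
    by_contra hcon2
    push Not at hcon2
    have h1 : Nat.card (MulAction.fixedPoints P T.ker) = 1 := by
      rw [Nat.card_eq_one_iff_unique]
      refine ⟨⟨?_⟩, ⟨⟨1, ?_⟩⟩⟩
      · rintro ⟨u, hu⟩ ⟨v, hv⟩
        have e1 : u = 1 := by
          by_contra he
          obtain ⟨g, hg⟩ := hcon2 u he
          exact hg (hu g)
        have e2 : v = 1 := by
          by_contra he
          obtain ⟨g, hg⟩ := hcon2 v he
          exact hg (hv g)
        exact Subtype.ext (e1.trans e2.symm)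
      · intro g
        apply Subtype.ext
        exact hker g 1 (Subgroup.one_mem _) |> fun _ => (cg g).map_one
    rw [h1] at hmod
    have h2 : Nat.card T.ker % p = 0 := Nat.mod_eq_zero_of_dvd hcard
    have h3 : 1 % p = 1 := Nat.mod_eq_of_lt hp.out.one_lt
    have h4 : Nat.card T.ker % p = 1 % p := hmod
    omega
  obtain ⟨u, hu1, hufix⟩ := hexu
  have hw : ((u.1.val : K) : X) ∈ K ⊓ Subgroup.centralizer (P : Set X) := by
    refine ⟨u.1.val.2, Subgroup.mem_centralizer_iff.2 ?_⟩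
    intro g hg
    have h1 := hufix ⟨g, hg⟩
    have h2 := congrArg (fun z : T.ker => ((z.1.val : K) : X)) h1
    have h3 : g * (u.1.val : X) * g⁻¹ = u.1.val := h2
    calc g * (u.1.val : X) = g * (u.1.val : X) * g⁻¹ * g := by group
      _ = (u.1.val : X) * g := by rw [h3]
  have hw2 := hC hw
  rw [Subgroup.mem_centralizer_iff] at hw2
  have hcq : ∀ q : Q, c q u.1 = u.1 := by
    intro q
    apply BaerType.ext
    apply Subtype.ext
    show (q : X) * u.1.val * (q : X)⁻¹ = u.1.val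
    rw [hw2 q q.2]
    group
  have hTu : T u.1 = 1 := u.2
  rw [hT] at hTu
  simp only [hcq, Finset.prod_const, Finset.card_univ] at hTu
  have h5 := congrArg BaerType.val hTu
  rw [baer_pow_val hcl h hh] at h5
  have h6 : u.1.val ^ Fintype.card Q = 1 := h5
  have h7 : u.1.val ^ p = 1 := by
    apply Subtype.ext
    exact hexp _ u.1.val.2
  have h8 : orderOf u.1.val ∣ Fintype.card Q := orderOf_dvd_of_pow_eq_one h6
  have h9 : orderOf u.1.val ∣ p := orderOf_dvd_of_pow_eq_one h7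
  rw [← Nat.card_eq_fintype_card] at h8
  have h10 : orderOf u.1.val = 1 := Nat.eq_one_of_dvd_coprimes hQ h8 h9
  rw [orderOf_eq_one_iff] at h10
  apply hu1
  apply Subtype.ext
  apply BaerType.ext
  exact h10

end Step



end Cfsg.Agent.H18
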