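import Mathlib
import Cfsg.Agent.Lib.H18.Syl
import Cfsg.Agent.Lib.H01.Fitting

/-! Generic "`X`-core" arguments: subnormal `X`-subgroups lie in the `X`-core. -/

set_option autoImplicit false

universe u

namespace Cfsg.Agent.H18

/-- The join of the normal subgroups having the property `X`. -/
def xCore (X : ∀ (H : Type u) [Group H], Prop) (G : Type u) [Group G] : Subgroup G :=
  sSup {N : Subgroup G | N.Normal ∧ X N}

theorem xCore_normal (X : ∀ (H : Type u) [Group H], Prop) (G : Type u) [Group G] :
    (xCore X G).Normal :=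
  Subgroup.sSup_normal _ (fun _ h => h.1)

theorem xCore_characteristic (X : ∀ (H : Type u) [Group H], Prop)
    (hiso : ∀ {H H' : Type u} [Group H] [Group H'], (H ≃* H') → X H → X H')
    (G : Type u) [Group G] : (xCore X G).Characteristic := by
  rw [Subgroup.characteristic_iff_map_le]
  intro φ
  unfold xCore
  refine (Subgroup.map_le_iff_le_comap).2 (sSup_le ?_)
  rintro N ⟨hN, hX⟩
  rw [← Subgroup.map_le_iff_le_comap]
  apply le_sSup
  refine ⟨hN.map _ φ.surjective, ?_⟩
  exact hiso (N.equivMapOfInjective _ φ.injective) hX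

/-- A subnormal `X`-subgroup lies in the `X`-core. -/
theorem le_xCore_of_isSubnormal (X : ∀ (H : Type u) [Group H], Prop)
    (hiso : ∀ {H H' : Type u} [Group H] [Group H'], (H ≃* H') → X H → X H')
    (hcore : ∀ (H : Type u) [Group H] [Finite H], X (xCore X H))
    (G : Type u) [Group G] [Finite G] (A : Subgroup G) (hA : A.IsSubnormal) (hX : X A) :
    A ≤ xCore X G := by
  induction hn : Nat.card G using Nat.strong_induction_on generalizing G with
  | _ n ih =>
  rcases hA.lt_normal with h | ⟨N, hN, hAN, hlt⟩
  · subst h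
    exact le_sSup ⟨inferInstance, hX⟩
  · have hcard : Nat.card N < n := by
      rw [← hn]
      have := Subgroup.card_le_card_group N
      refine lt_of_le_of_ne this ?_
      intro h
      apply hlt.ne
      apply Subgroup.eq_top_of_card_eq
      exact h
    have hA' : (A.subgroupOf N).IsSubnormal := hA.subgroupOf
    have hX' : X (A.subgroupOf N) := hiso (Subgroup.subgroupOfEquivOfLe hAN).symm hX
    have h1 := ih (Nat.card N) hcard N (A.subgroupOf N) hA' hX' rfl
    have hchar := xCore_characteristic X hiso N
    have hnorm : ((xCore X N).map N.subtype).Normal := inferInstance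
    have h2 : (xCore X N).map N.subtype ≤ xCore X G := by
      apply le_sSup
      refine ⟨hnorm, ?_⟩
      exact hiso ((xCore X N).equivMapOfInjective _ N.subtype_injective) (hcore N)
    intro a ha
    apply h2
    exact ⟨⟨a, hAN ha⟩, h1 (Subgroup.mem_subgroupOf.2 ha), rfl⟩

/-- The property "all prime divisors of the order lie in `π`". -/
def IsPi (π : Set ℕ) (H : Type*) [Group H] : Prop :=
  ∀ p : ℕ, p.Prime → p ∣ Nat.card H → p ∈ π

theorem isPi_congr (π : Set ℕ) {H H' : Type*} [Group H] [Group H'] (e : H ≃* H') (h : IsPi π H) :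
    IsPi π H' := by
  intro p hp hd
  apply h p hp
  rwa [Nat.card_congr e.toEquiv]

theorem isPi_sup {G : Type*} [Group G] [Finite G] (π : Set ℕ) {N M : Subgroup G} [M.Normal]
    (hN : IsPi π N) (hM : IsPi π M) : IsPi π (N ⊔ M : Subgroup G) := by
  intro p hp hd
  have h1 := card_sup_mul_card_inf N M
  have h2 : p ∣ Nat.card N * Nat.card M := by
    rw [← h1]; exact hd.mul_right _
  rcases (Nat.Prime.dvd_mul hp).1 h2 with h | h
  · exact hN p hp h
  · exact hM p hp h

/-- The `π`-core of a finite group is a `π`-group. -/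
theorem isPi_piCore {G : Type*} [Group G] [Finite G] (π : Set ℕ) :
    IsPi π (sSup {N : Subgroup G | N.Normal ∧ IsPi π N} : Subgroup G) := by
  classical
  set S := {N : Subgroup G | N.Normal ∧ IsPi π N} with hS
  have hne : S.Nonempty := by
    refine ⟨⊥, inferInstance, ?_⟩
    intro p hp hd
    rw [Subgroup.card_bot] at hd
    exact absurd (Nat.dvd_one.1 hd) hp.ne_one
  obtain ⟨M, hM⟩ := S.toFinite.exists_maximal hne
  have hMS : M ∈ S := hM.prop
  haveI : M.Normal := hMS.1
  have hle : ∀ N ∈ S, N ≤ M := by
    intro N hN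
    haveI : N.Normal := hN.1
    have h1 : (M ⊔ N : Subgroup G) ∈ S := ⟨inferInstance, isPi_sup π hMS.2 hN.2⟩
    have h2 := hM.le_of_ge h1 le_sup_left
    exact le_trans le_sup_right h2
  have : sSup S = M := le_antisymm (sSup_le hle) (le_sSup hMS)
  rw [this]
  exact hMS.2

end Cfsg.Agent.H18
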