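import Mathlib
import Cfsg.Agent.Lib.H18.Basic
import Cfsg.Agent.Lib.H18.Syl
import Cfsg.Agent.Lib.H01.Coprime

/-! Elementary abelian subgroups: commuting joins. -/

set_option autoImplicit false
set_option linter.unusedSectionVars false

namespace Cfsg.Agent.H18

section
variable {G : Type*} [Group G] [Finite G]

theorem normalizer_of_comm {A B : Subgroup G} (h : ∀ a ∈ A, ∀ b ∈ B, a * b = b * a) :
    B ≤ Subgroup.normalizer (A : Set G) := by
  intro b hb
  rw [mem_normalizer_of_map_conj_eq_iff_le]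
  rintro _ ⟨a, ha, rfl⟩
  have h2 : (MulAut.conj b).toMonoidHom a = a := by
    show b * a * b⁻¹ = a
    rw [← h a ha b hb]
    group
  rw [h2]
  exact ha

theorem comm_sup_of_comm {A B : Subgroup G} (hA : ∀ a ∈ A, ∀ b ∈ A, a * b = b * a)
    (hB : ∀ a ∈ B, ∀ b ∈ B, a * b = b * a) (h : ∀ a ∈ A, ∀ b ∈ B, a * b = b * a) :
    ∀ x ∈ A ⊔ B, ∀ y ∈ A ⊔ B, x * y = y * x := by
  intro x hx y hy
  obtain ⟨a, ha, b, hb, rfl⟩ := H01.exists_mul_of_mem_sup (normalizer_of_comm h) hx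
  obtain ⟨c, hc, d, hd, rfl⟩ := H01.exists_mul_of_mem_sup (normalizer_of_comm h) hy
  have h1 : Commute a c := hA a ha c hc
  have h2 : Commute a d := h a ha d hd
  have h3 : Commute b c := (h c hc b hb).symm
  have h4 : Commute b d := hB b hb d hd
  exact ((h1.mul_right h2).mul_left (h3.mul_right h4))

theorem exp_sup_of_comm {A B : Subgroup G} {p : ℕ} (hA : ∀ a ∈ A, a ^ p = 1) (hB : ∀ b ∈ B, b ^ p = 1)
    (h : ∀ a ∈ A, ∀ b ∈ B, a * b = b * a) : ∀ x ∈ A ⊔ B, x ^ p = 1 := by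
  intro x hx
  obtain ⟨a, ha, b, hb, rfl⟩ := H01.exists_mul_of_mem_sup (normalizer_of_comm h) hx
  have h1 : Commute a b := h a ha b hb
  rw [h1.mul_pow, hA a ha, hB b hb, one_mul]

end

end Cfsg.Agent.H18
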