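import Mathlib
import Cfsg.Agent.Lib.H13.M24Syl
import Cfsg.Agent.Lib.H07.GolayOctA8
import Cfsg.Agent.Lib.H02.Gol3

/-!
Semiregularity of the pointwise stabiliser of an octad in `M24`.
-/

set_option autoImplicit false
set_option maxRecDepth 100000
set_option linter.style.haveILetI false

namespace Cfsg.Agent.H18.M24Oct

open Cfsg Cfsg.Agent.H27.Golay Equiv
open scoped Pointwise

theorem T7_free : allL (fun t => allBelow (fun i => Nat.beq (pa t i) i) 24 ||
    allBelow (fun i => O0.testBit i || !(Nat.beq (pa t i) i)) 24) T7 = true := by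
  decide +kernel

theorem free_O0 {g : Perm GolayPt} (hg : g ∈ M24) (hfix : ∀ p ∈ fs O0, g p = p) (hne : g ≠ 1)
    {p : GolayPt} (hp : p ∉ fs O0) : g p ≠ p := by
  obtain ⟨t, ht, hok, rfl⟩ := H13.M24S.exists_T7 ((H13.M24S.mem_fix_iff hg).2 hfix)
  have h1 := allL_spec T7_free t ht
  rw [Bool.or_eq_true] at h1
  rcases h1 with h1 | h1
  · exfalso
    apply hne
    ext q
    have h2 := allBelow_spec h1 _ (idx_lt q)
    rw [P_apply hok, Nat.eq_of_beq_eq_true h2, pt_idx]
    rfl
  · have h2 := allBelow_spec h1 _ (idx_lt p)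
    intro h3
    rw [Bool.or_eq_true] at h2
    rcases h2 with h2 | h2
    · exact hp (mem_fs.2 h2)
    · have h4 : pa t (idx p) = idx p := by
        have := idx_P hok p
        rw [h3] at this
        exact this.symm
      rw [h4] at h2
      simp at h2

/-- A nonidentity element of `M24` fixing an octad pointwise fixes nothing else. -/
theorem free_octad {o : Finset GolayPt} (ho : o ∈ octads) {g : Perm GolayPt} (hg : g ∈ M24)
    (hfix : ∀ p ∈ o, g p = p) (hne : g ≠ 1) {p : GolayPt} (hp : p ∉ o) : g p ≠ p := by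
  obtain ⟨h, hh, rfl⟩ := exists_smul_O0 ho
  have hk : h⁻¹ * g * h ∈ M24 := M24.mul_mem (M24.mul_mem (M24.inv_mem hh) hg) hh
  have hk1 : ∀ q ∈ fs O0, (h⁻¹ * g * h) q = q := by
    intro q hq
    have : h q ∈ h • fs O0 := Finset.smul_mem_smul_finset (a := h) hq
    have h3 : g (h q) = h q := hfix _ this
    simp [Perm.mul_apply, h3]
  have hk2 : h⁻¹ * g * h ≠ 1 := by
    intro h1
    apply hne
    have : g = h * (h⁻¹ * g * h) * h⁻¹ := by group
    rw [this, h1]
    group
  have hk3 : h⁻¹ p ∉ fs O0 := by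
    intro h1
    apply hp
    have : h (h⁻¹ p) ∈ h • fs O0 := Finset.smul_mem_smul_finset (a := h) h1
    simpa using this
  have := free_O0 hk hk1 hk2 hk3
  intro h3
  apply this
  simp [Perm.mul_apply, h3]

abbrev O1 : ℕ := 1351424

theorem fs_O1_octad : fs O1 ∈ octads :=
  mem_octads_fs (by decide +kernel) (by decide +kernel) (by decide +kernel)

theorem disj_O1 : ∀ p ∈ fs O1, p ∉ fs O0 := by decide +kernel

theorem pt4_not_O0 : pt 4 ∉ fs O0 := by decide +kernel
theorem pt4_not_O1 : pt 4 ∉ fs O1 := by decide +kernel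

/-- An element of `M24` fixing the complement of an octad pointwise is trivial. -/
theorem eq_one_of_fix_compl {o : Finset GolayPt} (ho : o ∈ octads) {g : Perm GolayPt} (hg : g ∈ M24)
    (hfix : ∀ p, p ∉ o → g p = p) : g = 1 := by
  obtain ⟨h, hh, rfl⟩ := exists_smul_O0 ho
  have hk : h⁻¹ * g * h ∈ M24 := M24.mul_mem (M24.mul_mem (M24.inv_mem hh) hg) hh
  have hk1 : ∀ q, q ∉ fs O0 → (h⁻¹ * g * h) q = q := by
    intro q hq
    have h2 : h q ∉ h • fs O0 := by
      intro h1
      obtain ⟨a, ha, hb⟩ := Finset.mem_smul_finset.1 h1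
      have h5 : a = q := h.injective hb
      exact hq (h5 ▸ ha)
    have h3 : g (h q) = h q := hfix _ h2
    simp [Perm.mul_apply, h3]
  have hk2 : h⁻¹ * g * h = 1 := by
    by_contra hne
    refine free_octad fs_O1_octad hk (fun p hp => hk1 p (disj_O1 p hp)) hne pt4_not_O1 ?_
    exact hk1 _ pt4_not_O0
  have : g = h * (h⁻¹ * g * h) * h⁻¹ := by group
  rw [this, hk2]
  group

end Cfsg.Agent.H18.M24Oct
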