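import Mathlib

/-! Neumann: a finite 2-group (more generally: nilpotent without 3-torsion) with an endomorphism `φ`
satisfying `x * φ x * φ (φ x) = 1` (the shape of a fixed-point-free automorphism of order 3)
has class at most two. -/

set_option autoImplicit false
set_option linter.style.haveILetI false

namespace Cfsg.Agent.H18

open scoped commutatorElement

universe u

section Neu
variable {N : Type u} [Group N]

theorem neu_cube (φ : N →* N) (I : ∀ x, x * φ x * φ (φ x) = 1) (x : N) : φ (φ (φ x)) = x := by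
  have h1 := congrArg φ (I x)
  simp only [map_mul, map_one] at h1
  have h2 := I x
  have h3 : φ x * φ (φ x) = x⁻¹ := by
    rw [mul_assoc] at h2; exact eq_inv_of_mul_eq_one_right h2
  rw [h3] at h1
  exact (inv_mul_eq_one.mp h1).symm

theorem neu_comm (φ : N →* N) (I : ∀ x, x * φ x * φ (φ x) = 1) (x : N) : x * φ x = φ x * x := by
  have h1 := I x⁻¹
  simp only [map_inv] at h1
  have h2 := I x
  have h3 : φ (φ x) = (x * φ x)⁻¹ := eq_inv_of_mul_eq_one_right h2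
  have h4 : (φ (φ x))⁻¹ = φ x * x := by
    have : x⁻¹ * (φ x)⁻¹ * (φ (φ x))⁻¹ = 1 := h1
    have h5 : (φ (φ x))⁻¹ = (x⁻¹ * (φ x)⁻¹)⁻¹ := eq_inv_of_mul_eq_one_right this
    rw [h5]; group
  rw [h3, inv_inv] at h4
  exact h4

theorem neu_inj (φ : N →* N) (I : ∀ x, x * φ x * φ (φ x) = 1) : Function.Injective φ := by
  intro a b h
  have := congrArg (fun t => φ (φ t)) h
  simpa [neu_cube φ I] using this

theorem neu_surj (φ : N →* N) (I : ∀ x, x * φ x * φ (φ x) = 1) : Function.Surjective φ := by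
  intro a
  exact ⟨φ (φ a), neu_cube φ I a⟩

/-- conjugating by `x` vs by `φ x`. -/
theorem neu_dagger (φ : N →* N) (I : ∀ x, x * φ x * φ (φ x) = 1) (x y : N) :
    x * ⁅y, φ x⁆ * x⁻¹ = φ x * ⁅φ y, x⁆ * (φ x)⁻¹ := by
  have hc := neu_comm φ I (x * y)
  simp only [map_mul] at hc
  have hxu := neu_comm φ I x
  have hyv := neu_comm φ I y
  set u := φ x with hu
  set v := φ y with hv
  simp only [commutatorElement_def]
  -- goal: x*(y*u*y⁻¹*u⁻¹)*x⁻¹ = u*(v*x*v⁻¹*x⁻¹)*u⁻¹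
  have h1 : x * y * u * y⁻¹ = u * v * x * v⁻¹ := by
    have h2 : x * y * u * v = u * v * x * y := by
      simpa [mul_assoc] using hc
    have h3 : x * y * u = u * v * x * y * v⁻¹ := by
      rw [← h2]; group
    rw [h3]
    have h4 : y * v⁻¹ * y⁻¹ = v⁻¹ := by
      have : y * v⁻¹ = v⁻¹ * y := (Commute.inv_right (show Commute y v from hyv)).eq
      rw [this]; group
    calc u * v * x * y * v⁻¹ * y⁻¹ = u * v * x * (y * v⁻¹ * y⁻¹) := by group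
      _ = u * v * x * v⁻¹ := by rw [h4]
  have h5 : u⁻¹ * x⁻¹ = x⁻¹ * u⁻¹ := by
    rw [← mul_inv_rev, ← mul_inv_rev, hxu]
  calc x * (y * u * y⁻¹ * u⁻¹) * x⁻¹ = (x * y * u * y⁻¹) * (u⁻¹ * x⁻¹) := by group
    _ = (u * v * x * v⁻¹) * (x⁻¹ * u⁻¹) := by rw [h1, h5]
    _ = u * (v * x * v⁻¹ * x⁻¹) * u⁻¹ := by group

variable (hT : ∀ x y z : N, ⁅⁅x, y⁆, z⁆ ∈ Subgroup.center N)

include hT in
theorem neu_central_comm (a b g : N) : ⁅g, ⁅a, b⁆⁆ ∈ Subgroup.center N := by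
  have := Subgroup.inv_mem _ (hT a b g)
  rwa [commutatorElement_inv] at this

theorem neu_comm_central_left {ζ : N} (hζ : ζ ∈ Subgroup.center N) (c z : N) :
    ⁅ζ * c, z⁆ = ⁅c, z⁆ := by
  have h := Subgroup.mem_center_iff.mp hζ
  simp only [commutatorElement_def]
  have h1 : ζ * c * z * (ζ * c)⁻¹ = c * z * c⁻¹ := by
    have : ζ * c * z * (ζ * c)⁻¹ = ζ * (c * z * c⁻¹) * ζ⁻¹ := by group
    rw [this, ← h, mul_assoc, mul_inv_cancel, mul_one]
  rw [h1]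

include hT in
/-- conjugate of a commutator has the same commutators. -/
theorem neu_conj (a b g z : N) : ⁅g * ⁅a, b⁆ * g⁻¹, z⁆ = ⁅⁅a, b⁆, z⁆ := by
  have h : g * ⁅a, b⁆ * g⁻¹ = ⁅g, ⁅a, b⁆⁆ * ⁅a, b⁆ := by
    simp only [commutatorElement_def]; group
  rw [h]
  exact neu_comm_central_left (neu_central_comm hT a b g) _ _

include hT in
theorem neu_A1 (φ : N →* N) (I : ∀ x, x * φ x * φ (φ x) = 1) (x y z : N) :
    ⁅⁅y, φ x⁆, z⁆ = ⁅⁅φ y, x⁆, z⁆ := by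
  have h := neu_dagger φ I x y
  rw [← neu_conj hT y (φ x) x z, h, neu_conj hT]

include hT in
theorem neu_A3 (φ : N →* N) (I : ∀ x, x * φ x * φ (φ x) = 1) (a b y : N) :
    ⁅⁅φ a, φ b⁆, y⁆ = ⁅⁅a, b⁆, φ y⁆ := by
  have h := neu_dagger φ I ⁅a, b⁆ y
  have hφ : φ ⁅a, b⁆ = ⁅φ a, φ b⁆ := map_commutatorElement φ a b
  rw [hφ] at h
  have c1 := neu_central_comm hT (φ a) (φ b) y
  have c2 := neu_central_comm hT a b (φ y)
  have e1 : ⁅a, b⁆ * ⁅y, ⁅φ a, φ b⁆⁆ * ⁅a, b⁆⁻¹ = ⁅y, ⁅φ a, φ b⁆⁆ := by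
    rw [(Subgroup.mem_center_iff.mp c1 ⁅a, b⁆)]
    group
  have e2 : ⁅φ a, φ b⁆ * ⁅φ y, ⁅a, b⁆⁆ * ⁅φ a, φ b⁆⁻¹ = ⁅φ y, ⁅a, b⁆⁆ := by
    rw [(Subgroup.mem_center_iff.mp c2 ⁅φ a, φ b⁆)]
    group
  rw [e1, e2] at h
  have h' := congrArg (·⁻¹) h
  simpa only [commutatorElement_inv] using h'

include hT in
theorem neu_R_mul (a b u v : N) : ⁅⁅a, b⁆, u * v⁆ = ⁅⁅a, b⁆, u⁆ * ⁅⁅a, b⁆, v⁆ := by
  set w := ⁅a, b⁆ with hw
  have hc : ⁅w, v⁆ ∈ Subgroup.center N := hT a b v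
  have h : ⁅w, u * v⁆ = ⁅w, u⁆ * (u * ⁅w, v⁆ * u⁻¹) := by
    simp only [commutatorElement_def]; group
  rw [h, (Subgroup.mem_center_iff.mp hc u)]
  group

include hT in
theorem neu_R_conj (a b g c : N) : ⁅⁅a, b⁆, g * c * g⁻¹⁆ = ⁅⁅a, b⁆, c⁆ := by
  rw [neu_R_mul hT, neu_R_mul hT]
  have hg : ⁅⁅a, b⁆, g⁻¹⁆ = ⁅⁅a, b⁆, g⁆⁻¹ := by
    have h1 := neu_R_mul hT a b g g⁻¹
    rw [mul_inv_cancel] at h1
    have h2 : ⁅⁅a, b⁆, (1:N)⁆ = 1 := commutatorElement_one_right _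
    rw [h2] at h1
    exact eq_inv_of_mul_eq_one_right h1.symm
  rw [hg]
  have h3 := (Subgroup.mem_center_iff.mp (hT a b g)) ⁅⁅a, b⁆, c⁆
  rw [← h3]; group

/-- Hall–Witt in Mathlib's commutator convention. -/
theorem neu_hallWitt (a b c : N) :
    ⁅⁅a, b⁆, b * c * b⁻¹⁆ * ⁅⁅b, c⁆, c * a * c⁻¹⁆ * ⁅⁅c, a⁆, a * b * a⁻¹⁆ = 1 := by
  simp only [commutatorElement_def]; group

include hT in
theorem neu_jacobi (a b c : N) : ⁅⁅a, b⁆, c⁆ * ⁅⁅b, c⁆, a⁆ * ⁅⁅c, a⁆, b⁆ = 1 := by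
  have h := neu_hallWitt a b c
  rwa [neu_R_conj hT, neu_R_conj hT, neu_R_conj hT] at h

include hT in
theorem neu_T_eq_one (φ : N →* N) (I : ∀ x, x * φ x * φ (φ x) = 1)
    (h3 : ∀ v : N, v ^ 3 = 1 → v = 1) (x y z : N) : ⁅⁅y, z⁆, x⁆ = 1 := by
  have hcube := neu_cube φ I
  -- L1 : φ T(x,y,z) = T(φ x, y, z)
  have L1 : ∀ a b c : N, φ ⁅⁅a, b⁆, c⁆ = ⁅⁅φ a, b⁆, c⁆ := by
    intro a b c
    rw [map_commutatorElement, map_commutatorElement]
    -- T(φa, φb, φc) = T(φφa, φφb, c) by A3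
    rw [← neu_A3 hT φ I (φ a) (φ b) c]
    -- T(φ(φa), φ(φb), c) = T(φa, φ(φ(φb)), c)
    rw [← neu_A1 hT φ I (φ (φ b)) (φ a) c, hcube]
  have L2 : ∀ a b c : N, φ (φ ⁅⁅a, b⁆, c⁆) = ⁅⁅φ (φ a), b⁆, c⁆ := by
    intro a b c
    rw [L1, L1]
  have e1 : ⁅⁅y, z⁆, φ x⁆ = φ (φ ⁅⁅y, z⁆, x⁆) := by
    rw [← neu_A3 hT φ I y z x, L2]
    rw [neu_A1 hT φ I z (φ y) x]
  have e2 : ⁅⁅z, φ x⁆, y⁆ = φ ⁅⁅z, x⁆, y⁆ := by
    rw [L1]; exact neu_A1 hT φ I x z y
  have J1 := neu_jacobi hT (φ x) y z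
  rw [← L1, e1, e2] at J1
  have J2 := congrArg φ (neu_jacobi hT x y z)
  simp only [map_mul, map_one] at J2
  -- φU φ²V φW = 1, φU φV φW = 1
  have e3 : φ (φ ⁅⁅y, z⁆, x⁆) = φ ⁅⁅y, z⁆, x⁆ := by
    have := J1.trans J2.symm
    exact mul_left_cancel (mul_right_cancel this)
  have e4 : φ ⁅⁅y, z⁆, x⁆ = ⁅⁅y, z⁆, x⁆ := neu_inj φ I e3
  have e5 := I ⁅⁅y, z⁆, x⁆
  rw [e4, e4] at e5
  apply h3
  rw [pow_three']; exact e5

end Neu

section Main

theorem neu_class_two_aux (n : ℕ) : ∀ (N : Type u) [Group N] [Finite N], Nat.card N = n → IsPGroup 2 N →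
    ∀ φ : N →* N, (∀ x, x * φ x * φ (φ x) = 1) → ∀ x y z : N, ⁅⁅x, y⁆, z⁆ = 1 := by
  induction n using Nat.strong_induction_on with
  | _ n ih =>
    intro N _ _ hn hN φ I x y z
    haveI : Fact (Nat.Prime 2) := ⟨Nat.prime_two⟩
    by_cases htriv : Subsingleton N
    · exact Subsingleton.elim _ _
    rw [not_subsingleton_iff_nontrivial] at htriv
    haveI := htriv
    have hcen : Nontrivial (Subgroup.center N) := hN.center_nontrivial
    -- quotient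
    have hle : Subgroup.center N ≤ (Subgroup.center N).comap φ := by
      intro c hc
      rw [Subgroup.mem_comap, Subgroup.mem_center_iff]
      intro g
      obtain ⟨g', rfl⟩ := neu_surj φ I g
      rw [← map_mul, ← map_mul, (Subgroup.mem_center_iff.mp hc g')]
    let Q := N ⧸ Subgroup.center N
    let ψ : Q →* Q := QuotientGroup.map _ _ φ hle
    have hψ : ∀ a : N, ψ (a : Q) = ((φ a : N) : Q) := fun a => rfl
    have Iq : ∀ a : Q, a * ψ a * ψ (ψ a) = 1 := by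
      intro a
      obtain ⟨a, rfl⟩ := QuotientGroup.mk_surjective a
      show ((a : N) : Q) * ψ (a : Q) * ψ (ψ (a : Q)) = 1
      rw [hψ, hψ]
      rw [← QuotientGroup.mk_mul, ← QuotientGroup.mk_mul, I a]
      rfl
    have hcard : Nat.card Q < n := by
      have h1 : Nat.card Q * Nat.card (Subgroup.center N) = Nat.card N :=
        (Subgroup.card_eq_card_quotient_mul_card_subgroup _).symm
      have h2 : 1 < Nat.card (Subgroup.center N) := Finite.one_lt_card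
      have h3 : 0 < Nat.card N := Nat.card_pos
      have h4 : 0 < Nat.card Q := Nat.card_pos
      rw [← hn, ← h1]
      nlinarith
    have hQ : IsPGroup 2 Q := hN.to_quotient _
    have hT : ∀ a b c : N, ⁅⁅a, b⁆, c⁆ ∈ Subgroup.center N := by
      intro a b c
      have := ih _ hcard Q rfl hQ ψ Iq (a : Q) (b : Q) (c : Q)
      have h : (QuotientGroup.mk' (Subgroup.center N)) ⁅⁅a, b⁆, c⁆ =
          ⁅⁅(a : Q), (b : Q)⁆, (c : Q)⁆ := by
        rw [map_commutatorElement, map_commutatorElement]; rfl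
      exact (QuotientGroup.eq_one_iff _).mp (h.trans this)
    have h3 : ∀ v : N, v ^ 3 = 1 → v = 1 := by
      intro v hv
      obtain ⟨k, hk⟩ := hN v
      have h1 : orderOf v ∣ 3 := orderOf_dvd_of_pow_eq_one hv
      have h2 : orderOf v ∣ 2 ^ k := orderOf_dvd_of_pow_eq_one hk
      have h4 : orderOf v ∣ Nat.gcd 3 (2 ^ k) := Nat.dvd_gcd h1 h2
      have h5 : Nat.gcd 3 (2 ^ k) = 1 := Nat.Coprime.pow_right _ (by norm_num)
      rw [h5, Nat.dvd_one, orderOf_eq_one_iff] at h4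
      exact h4
    have := neu_T_eq_one hT φ I h3 z x y
    exact this

/-- Neumann, order three, 2-group case. -/
theorem neu_class_two {N : Type u} [Group N] [Finite N] (hN : IsPGroup 2 N) (φ : N →* N)
    (I : ∀ x, x * φ x * φ (φ x) = 1) (x y z : N) : ⁅⁅x, y⁆, z⁆ = 1 :=
  neu_class_two_aux _ N rfl hN φ I x y z

end Main

end Cfsg.Agent.H18
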