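import Mathlib
import Cfsg.Prelude.Def_CaseTheorems
import Cfsg.Agent.Lib.H18.EASup
import Cfsg.Agent.Lib.H14.UniqueSub
import Cfsg.Agent.Lib.H14.Nilp
import Cfsg.Agent.Lib.H15.Cyc2

/-! Roquette: 2-groups whose abelian normal subgroups are cyclic. -/

set_option autoImplicit false
set_option linter.unusedSectionVars false

namespace Cfsg.Agent.H18

theorem coprime_two_pow_of_odd (k : ℕ) (x : ℤ) (hx : Odd x) : IsCoprime ((2 : ℤ) ^ k) x := by
  obtain ⟨c, rfl⟩ := hx
  exact IsCoprime.pow_left ⟨-c, 1, by ring⟩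

theorem int_split (k : ℕ) (R : ℤ) (h : 4 * (2 : ℤ) ^ k ∣ R * R - 1) :
    (∃ e : ℤ, R = 1 + 2 * 2 ^ k * e ∧ (4 : ℤ) ∣ R - 1) ∨
      (∃ e : ℤ, R = -1 + 2 * 2 ^ k * e ∧ (4 : ℤ) ∣ R + 1) := by
  have hodd : Odd R := by
    by_contra hne
    rw [Int.not_odd_iff_even] at hne
    obtain ⟨c, hc⟩ := h
    obtain ⟨s, hs⟩ := hne
    have h1 : 4 * (s * s) - 1 = 4 * (2 ^ k * c) := by
      rw [hs] at hc
      linear_combination hc
    omega
  obtain ⟨s, rfl⟩ := hodd
  have h1 : (2 * s + 1) * (2 * s + 1) - 1 = 4 * (s * (s + 1)) := by ring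
  rw [h1] at h
  have h2 : (2 : ℤ) ^ k ∣ s * (s + 1) := (mul_dvd_mul_iff_left (by norm_num : (4 : ℤ) ≠ 0)).1 h
  rcases Int.even_or_odd s with hs | hs
  · have hc : IsCoprime ((2 : ℤ) ^ k) (s + 1) := coprime_two_pow_of_odd k _ hs.add_one
    obtain ⟨e, he⟩ := hc.dvd_of_dvd_mul_right h2
    obtain ⟨t, ht⟩ := hs
    exact Or.inl ⟨e, by rw [he]; ring, ⟨t, by rw [ht]; ring⟩⟩
  · have hc : IsCoprime ((2 : ℤ) ^ k) s := coprime_two_pow_of_odd k _ hs
    obtain ⟨e, he⟩ := hc.dvd_of_dvd_mul_left h2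
    obtain ⟨t, ht⟩ := hs
    refine Or.inr ⟨e, ?_, ⟨t + 1, by rw [ht]; ring⟩⟩
    linear_combination 2 * he

theorem exists_pow_step {P : Type*} [Group P] (hP : IsPGroup 2 P) (A : Subgroup P) (t : P)
    (ht : t ∉ A) : ∃ i : ℕ, t ^ (2 ^ i) ∉ A ∧ t ^ (2 ^ i) * t ^ (2 ^ i) ∈ A := by
  classical
  obtain ⟨l, hl⟩ := hP t
  have hex : ∃ i : ℕ, t ^ (2 ^ i) ∈ A := ⟨l, by rw [hl]; exact A.one_mem⟩
  have hne : Nat.find hex ≠ 0 := by
    intro h0
    have := Nat.find_spec hex
    rw [h0] at this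
    simp at this
    exact ht this
  obtain ⟨i, hi⟩ := Nat.exists_eq_succ_of_ne_zero hne
  refine ⟨i, ?_, ?_⟩
  · exact Nat.find_min hex (by omega)
  · have := Nat.find_spec hex
    rw [hi, pow_succ, pow_mul, sq] at this
    exact this

section
variable {P : Type*} [Group P] [Finite P]

theorem roquette_two (hP : IsPGroup 2 P)
    (hn : ∀ A : Subgroup P, A.Normal → IsMulCommutative A → IsCyclic A) (hnc : ¬ IsCyclic P) :
    (∃ n : ℕ, Nonempty (P ≃* QuaternionGroup n)) ∨ (∃ n : ℕ, 8 ≤ n ∧ Nonempty (P ≃* DihedralGroup n)) ∨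
      Cfsg.IsQuasiDihedral P := by
  classical
  haveI : Fact (Nat.Prime 2) := ⟨Nat.prime_two⟩
  haveI : Group.IsNilpotent P := hP.isNilpotent
  obtain ⟨A, hAn, hAab, hAself⟩ := H14.exists_normal_abelian_selfCentralizing (G := P)
  have hAcyc := hn A hAn hAab
  obtain ⟨⟨a, haA⟩, ha⟩ := IsCyclic.exists_generator (α := A)
  have hAz : A = Subgroup.zpowers a := by
    apply le_antisymm
    · intro x hx
      obtain ⟨i, hi⟩ := ha ⟨x, hx⟩
      refine ⟨i, ?_⟩
      have := congrArg Subtype.val hi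
      simpa using this
    · rw [Subgroup.zpowers_le]
      exact haA
  rw [hAz] at hAn hAself
  clear hAz hAab hAcyc ha haA A
  -- `a` has 2-power order
  obtain ⟨n, hno⟩ := (IsPGroup.iff_orderOf.1 hP) a
  have hcen : ∀ c : P, c * a * c⁻¹ = a → c ∈ Subgroup.zpowers a := by
    intro c hc
    apply hAself
    rw [Subgroup.mem_centralizer_iff]
    rintro _ ⟨i, rfl⟩
    have hc' : c * a = a * c := by
      calc c * a = c * a * c⁻¹ * c := by group
        _ = a * c := by rw [hc]
    exact ((Commute.zpow_left (show Commute a c from hc'.symm) i))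
  have hA : ∀ (g : P) (x : P), x ∈ Subgroup.zpowers a → g * x * g⁻¹ ∈ Subgroup.zpowers a :=
    fun g x hx => hAn.conj_mem x hx g
  have hR : ∀ g : P, ∃ R : ℤ, g * a * g⁻¹ = a ^ R := by
    intro g
    obtain ⟨R, hR⟩ := hA g a (Subgroup.mem_zpowers a)
    exact ⟨R, hR.symm⟩
  have hact : ∀ (g : P) (R j : ℤ), g * a * g⁻¹ = a ^ R → g * a ^ j * g⁻¹ = a ^ (R * j) := by
    intro g R j h
    rw [← conj_zpow, h, zpow_mul]
  -- `n ≥ 2`
  have hn2 : 2 ≤ n := by
    by_contra hlt
    apply hnc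
    have hsq : a ^ 2 = 1 := by
      apply orderOf_dvd_iff_pow_eq_one.1
      rw [hno]
      simpa using pow_dvd_pow 2 (show n ≤ 1 by omega)
    have hall : ∀ g : P, g * a * g⁻¹ = a := by
      intro g
      by_cases ha1 : a = 1
      · rw [ha1]
        simp
      have h1 : g * a * g⁻¹ ∈ Subgroup.zpowers a := hA g a (Subgroup.mem_zpowers a)
      have h2 : orderOf (g * a * g⁻¹) = orderOf a := H15.orderOf_conj_eq g a
      have h3 : orderOf a = 2 := orderOf_eq_prime hsq ha1
      exact H15.unique_involution_of_zpowers h1 (Subgroup.mem_zpowers a) (h2.trans h3) h3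
    refine ⟨⟨a, fun x => ?_⟩⟩
    exact hcen x (hall x)
  obtain ⟨k, rfl⟩ : ∃ k, n = k + 2 := ⟨n - 2, by omega⟩
  obtain ⟨q, hq⟩ : ∃ q : ℤ, q = 2 ^ k := ⟨_, rfl⟩
  have hqpos : 0 < q := by rw [hq]; positivity
  have hq2 : (2 : ℤ) ^ (k + 1) = 2 * q := by rw [hq]; ring
  have hq4 : (2 : ℤ) ^ (k + 2) = 4 * q := by rw [hq]; ring
  have hzp : ∀ e : ℤ, a ^ e = 1 ↔ 4 * q ∣ e := by
    intro e
    rw [← orderOf_dvd_iff_zpow_eq_one, hno]
    have : ((2 ^ (k + 2) : ℕ) : ℤ) = 4 * q := by
      push_cast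
      exact hq4
    rw [this]
  have hzq : ∀ e f : ℤ, a ^ e = a ^ f ↔ 4 * q ∣ e - f := by
    intro e f
    rw [← hzp, zpow_sub, mul_inv_eq_one]
  obtain ⟨z, hz⟩ : ∃ z : P, z = a ^ (2 * q) := ⟨_, rfl⟩
  have hzA : z ∈ Subgroup.zpowers a := by
    rw [hz]
    exact Subgroup.zpow_mem _ (Subgroup.mem_zpowers a) _
  have hz2 : z * z = 1 := by
    rw [hz, ← zpow_add, hzp]
    exact ⟨1, by ring⟩
  have hz1 : z ≠ 1 := by
    intro h
    rw [hz, hzp] at h
    obtain ⟨c, hc⟩ := h
    have h2 : 2 * q * (1 - 2 * c) = 0 := by linear_combination hc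
    rcases mul_eq_zero.1 h2 with h3 | h3 <;> omega
  have hzo : orderOf z = 2 := orderOf_eq_prime (by rw [sq]; exact hz2) hz1
  have hzc : ∀ g : P, g * z * g⁻¹ = z := by
    intro g
    have h2 : orderOf (g * z * g⁻¹) = orderOf z := H15.orderOf_conj_eq g z
    exact H15.unique_involution_of_zpowers (hA g z hzA) hzA (h2.trans hzo) hzo
  have hj : ∀ j : ℤ, 2 * q ∣ j → a ^ j = 1 ∨ a ^ j = z := by
    rintro j ⟨i, hi⟩
    rcases Int.even_or_odd' i with ⟨u, rfl | rfl⟩
    · left
      rw [hzp, hi]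
      exact ⟨u, by ring⟩
    · right
      rw [hz, hzq, hi]
      exact ⟨u, by ring⟩
  have hinvA : ∀ y ∈ Subgroup.zpowers a, y * y = 1 → y = 1 ∨ y = z := by
    rintro _ ⟨i, rfl⟩ h
    change a ^ i * a ^ i = 1 at h
    rw [← zpow_add, hzp] at h
    apply hj
    obtain ⟨c, hc⟩ := h
    exact ⟨c, by linarith⟩
  have hcomA : ∀ g h : P, ∃ j : ℤ, g * h * g⁻¹ = a ^ j * h := by
    intro g h
    obtain ⟨R, hR1⟩ := hR g⁻¹
    obtain ⟨S, hS⟩ := hR h⁻¹
    have h1 : g⁻¹ * (h⁻¹ * a * h⁻¹⁻¹) * g⁻¹⁻¹ = a ^ (R * S) := by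
      rw [hS]
      exact hact g⁻¹ R S hR1
    have h2 : h⁻¹ * (g⁻¹ * a * g⁻¹⁻¹) * h⁻¹⁻¹ = a ^ (S * R) := by
      rw [hR1]
      exact hact h⁻¹ S R hS
    have h3 : g⁻¹ * (h⁻¹ * a * h⁻¹⁻¹) * g⁻¹⁻¹ = h⁻¹ * (g⁻¹ * a * g⁻¹⁻¹) * h⁻¹⁻¹ := by
      rw [h1, h2, mul_comm]
    have hx : (g * h * g⁻¹ * h⁻¹) * a * (g * h * g⁻¹ * h⁻¹)⁻¹ = a := by
      calc (g * h * g⁻¹ * h⁻¹) * a * (g * h * g⁻¹ * h⁻¹)⁻¹
          = (g * h) * (g⁻¹ * (h⁻¹ * a * h⁻¹⁻¹) * g⁻¹⁻¹) * (g * h)⁻¹ := by group
        _ = (g * h) * (h⁻¹ * (g⁻¹ * a * g⁻¹⁻¹) * h⁻¹⁻¹) * (g * h)⁻¹ := by rw [h3]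
        _ = a := by group
    obtain ⟨j, hj'⟩ := hcen _ hx
    refine ⟨j, ?_⟩
    change a ^ j = _ at hj'
    rw [hj']
    group
  have hsq : ∀ (g : P) (R : ℤ), g * a * g⁻¹ = a ^ R → g * g ∈ Subgroup.zpowers a →
      4 * q ∣ R * R - 1 := by
    intro g R h hgg
    obtain ⟨m, hm⟩ := hgg
    change a ^ m = _ at hm
    have h1 : (g * g) * a * (g * g)⁻¹ = a := by
      rw [← hm]
      have : Commute (a ^ m) a := (Commute.refl a).zpow_left m
      rw [this.eq]
      group
    have h2 : (g * g) * a * (g * g)⁻¹ = a ^ (R * R) := by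
      calc (g * g) * a * (g * g)⁻¹ = g * (g * a * g⁻¹) * g⁻¹ := by group
        _ = g * a ^ R * g⁻¹ := by rw [h]
        _ = a ^ (R * R) := hact g R R h
    rw [← hzq, zpow_one, ← h2, h1]
  have hnoV : ∀ w : P, w * w = 1 → w ∉ Subgroup.zpowers a →
      (∀ g : P, g * w * g⁻¹ = w ∨ g * w * g⁻¹ = z * w) → False := by
    intro w hw hwA hwg
    have hVn : (Subgroup.zpowers w ⊔ Subgroup.zpowers z).Normal := by
      constructor
      intro x hx g
      have hle : Subgroup.zpowers w ⊔ Subgroup.zpowers z ≤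
          (Subgroup.zpowers w ⊔ Subgroup.zpowers z).comap (MulAut.conj g).toMonoidHom := by
        apply sup_le
        · rw [Subgroup.zpowers_le]
          show g * w * g⁻¹ ∈ (Subgroup.zpowers w ⊔ Subgroup.zpowers z : Subgroup P)
          rcases hwg g with h | h
          · rw [h]
            exact Subgroup.mem_sup_left (Subgroup.mem_zpowers w)
          · rw [h]
            exact Subgroup.mul_mem _ (Subgroup.mem_sup_right (Subgroup.mem_zpowers z))
              (Subgroup.mem_sup_left (Subgroup.mem_zpowers w))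
        · rw [Subgroup.zpowers_le]
          show g * z * g⁻¹ ∈ (Subgroup.zpowers w ⊔ Subgroup.zpowers z : Subgroup P)
          rw [hzc]
          exact Subgroup.mem_sup_right (Subgroup.mem_zpowers z)
      exact hle hx
    have hwz : Commute w z := by
      show w * z = z * w
      calc w * z = w * z * w⁻¹ * w := by group
        _ = z * w := by rw [hzc]
    have hVc : IsMulCommutative (Subgroup.zpowers w ⊔ Subgroup.zpowers z : Subgroup P) := by
      have h1 := comm_sup_of_comm (A := Subgroup.zpowers w) (B := Subgroup.zpowers z)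
        (by rintro _ ⟨i, rfl⟩ _ ⟨j, rfl⟩; exact ((Commute.refl w).zpow_zpow i j))
        (by rintro _ ⟨i, rfl⟩ _ ⟨j, rfl⟩; exact ((Commute.refl z).zpow_zpow i j))
        (by rintro _ ⟨i, rfl⟩ _ ⟨j, rfl⟩; exact (hwz.zpow_zpow i j))
      exact ⟨⟨fun x y => Subtype.ext (h1 x x.2 y y.2)⟩⟩
    haveI := hn _ hVn hVc
    have hw1 : w ≠ 1 := by
      intro h
      apply hwA
      rw [h]
      exact Subgroup.one_mem _
    have hwo : orderOf w = 2 := orderOf_eq_prime (by rw [sq]; exact hw) hw1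
    have hmw : w ∈ Subgroup.zpowers w ⊔ Subgroup.zpowers z :=
      Subgroup.mem_sup_left (Subgroup.mem_zpowers w)
    have hmz : z ∈ Subgroup.zpowers w ⊔ Subgroup.zpowers z :=
      Subgroup.mem_sup_right (Subgroup.mem_zpowers z)
    have h2 := H15.unique_involution_of_cyclic
      (C := (Subgroup.zpowers w ⊔ Subgroup.zpowers z : Subgroup P))
      (u := ⟨w, hmw⟩) (v := ⟨z, hmz⟩)
      (by rw [Subgroup.orderOf_mk]; exact hwo) (by rw [Subgroup.orderOf_mk]; exact hzo)
    have h3 : w = z := congrArg Subtype.val h2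
    exact hwA (h3 ▸ hzA)
  obtain ⟨b, hb⟩ : ∃ b : P, b = a ^ q := ⟨_, rfl⟩
  have hCb : ∀ t : P, t * b = b * t → t ∈ Subgroup.zpowers a := by
    intro t ht
    by_contra htA
    obtain ⟨i, ht1, ht2⟩ := exists_pow_step hP (Subgroup.zpowers a) t htA
    obtain ⟨t₁, ht₁⟩ : ∃ t₁, t₁ = t ^ (2 ^ i) := ⟨_, rfl⟩
    rw [← ht₁] at ht1 ht2
    have hcomm : t₁ * b = b * t₁ := by
      rw [ht₁]
      exact (Commute.pow_left (show Commute t b from ht) _)
    obtain ⟨R, hR₁⟩ := hR t₁
    have hdiv := hsq t₁ R hR₁ ht2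
    have hq1 : (4 : ℤ) ∣ R - 1 := by
      have h1 : t₁ * b * t₁⁻¹ = b := by
        rw [hcomm]
        group
      rw [hb, hact t₁ R q hR₁, hzq] at h1
      obtain ⟨c, hc⟩ := h1
      have h2 : q * (R - 1 - 4 * c) = 0 := by linear_combination hc
      rcases mul_eq_zero.1 h2 with h3 | h3
      · omega
      · exact ⟨c, by linarith⟩
    rcases int_split k R (by rw [← hq]; exact hdiv) with ⟨e, he, -⟩ | ⟨e, he, h4⟩
    · rw [← hq] at he
      rcases Int.even_or_odd' e with ⟨f, rfl | rfl⟩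
      · apply ht1
        apply hcen
        rw [hR₁, ← zpow_one a, ← zpow_mul, one_mul, hzq]
        exact ⟨f, by rw [he]; ring⟩
      · obtain ⟨q₀, hq₀⟩ : ∃ q₀, q = 2 * q₀ := by
          rcases k with _ | k'
          · exfalso
            have hq1' : q = 1 := by simpa using hq
            rw [hq1'] at he
            omega
          · exact ⟨2 ^ k', by rw [hq]; ring⟩
        have hR' : t₁ * a * t₁⁻¹ = a ^ (1 + 2 * q) := by
          rw [hR₁, hzq]
          exact ⟨f, by rw [he]; ring⟩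
        obtain ⟨m, hm⟩ := ht2
        change a ^ m = _ at hm
        obtain ⟨c', rfl⟩ : ∃ c', m = 2 * c' := by
          have h1 : t₁ * a ^ m * t₁⁻¹ = a ^ ((1 + 2 * q) * m) := hact t₁ _ m hR'
          have h2 : t₁ * a ^ m * t₁⁻¹ = a ^ m := by
            rw [hm]
            group
          rw [h2, hzq] at h1
          obtain ⟨c, hc⟩ := h1
          have h3 : 2 * q * (m + 2 * c) = 0 := by linear_combination -hc
          rcases mul_eq_zero.1 h3 with h4 | h4
          · omega
          · exact ⟨-c, by linarith⟩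
        obtain ⟨c, hc⟩ : ∃ c, c = c' * (q - 1) := ⟨_, rfl⟩
        obtain ⟨w, hw⟩ : ∃ w, w = t₁ * a ^ c := ⟨_, rfl⟩
        have hw2 : w * w = 1 := by
          have h1 : t₁ * a ^ c * t₁⁻¹ = a ^ ((1 + 2 * q) * c) := hact t₁ _ c hR'
          calc w * w = (t₁ * a ^ c * t₁⁻¹) * (t₁ * t₁) * a ^ c := by rw [hw]; group
            _ = a ^ ((1 + 2 * q) * c) * a ^ (2 * c') * a ^ c := by rw [h1, ← hm]
            _ = a ^ ((1 + 2 * q) * c + 2 * c' + c) := by rw [zpow_add, zpow_add]
            _ = 1 := by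
              rw [hzp]
              exact ⟨c' * q₀, by rw [hc, hq₀]; ring⟩
        have hwA : w ∉ Subgroup.zpowers a := by
          intro h
          apply ht1
          have h2 : t₁ = w * (a ^ c)⁻¹ := by rw [hw]; group
          rw [h2]
          exact Subgroup.mul_mem _ h (Subgroup.inv_mem _ (Subgroup.zpow_mem _ (Subgroup.mem_zpowers a) _))
        have hwa : w * a * w⁻¹ = a ^ (1 + 2 * q) := by
          have h1 : Commute (a ^ c) a := (Commute.refl a).zpow_left c
          calc w * a * w⁻¹ = t₁ * (a ^ c * a * (a ^ c)⁻¹) * t₁⁻¹ := by rw [hw]; group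
            _ = t₁ * a * t₁⁻¹ := by rw [h1.eq]; group
            _ = _ := hR'
        apply hnoV w hw2 hwA
        intro g
        obtain ⟨j, hj'⟩ := hcomA g w
        have h1 : (g * w * g⁻¹) * (g * w * g⁻¹) = 1 := by
          calc (g * w * g⁻¹) * (g * w * g⁻¹) = g * (w * w) * g⁻¹ := by group
            _ = 1 := by rw [hw2]; group
        rw [hj'] at h1
        have h2 : w * a ^ j * w⁻¹ = a ^ ((1 + 2 * q) * j) := hact w _ j hwa
        have h3 : (a ^ j * w) * (a ^ j * w) = a ^ j * (w * a ^ j * w⁻¹) * (w * w) := by group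
        rw [h3, h2, hw2, mul_one, ← zpow_add, hzp] at h1
        have h4 : 2 * q ∣ j * (1 + q) := by
          obtain ⟨d, hd⟩ := h1
          refine ⟨d, ?_⟩
          have h5 : 2 * (j * (1 + q)) = 2 * (2 * q * d) := by linear_combination hd
          exact mul_left_cancel₀ two_ne_zero h5
        have h5 : 2 * q ∣ j := by
          rw [← hq2] at h4 ⊢
          exact (coprime_two_pow_of_odd (k + 1) (1 + q) ⟨q₀, by rw [hq₀]; ring⟩).dvd_of_dvd_mul_right h4
        rcases hj j h5 with h6 | h6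
        · left
          rw [hj', h6, one_mul]
        · right
          rw [hj', h6]
    · rw [← hq] at he
      omega
  obtain ⟨s, hsA⟩ : ∃ s, s ∉ Subgroup.zpowers a := by
    by_contra hall
    push Not at hall
    exact hnc ⟨⟨a, hall⟩⟩
  have hgb : ∀ g, g ∉ Subgroup.zpowers a → g * b * g⁻¹ = b⁻¹ := by
    intro g hg
    obtain ⟨R, hR₁⟩ := hR g
    have hRodd : ∃ u, R = 2 * u + 1 := by
      have h1 := hact g R (2 * q) hR₁
      rw [← hz, hzc, hz, hzq] at h1
      obtain ⟨c, hc⟩ := h1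
      have h2 : 2 * q * (1 - R - 2 * c) = 0 := by linear_combination hc
      rcases mul_eq_zero.1 h2 with h3 | h3
      · omega
      · exact ⟨-c, by linarith⟩
    obtain ⟨u, hu⟩ := hRodd
    rcases Int.even_or_odd' u with ⟨v, rfl | rfl⟩
    · exfalso
      apply hg
      apply hCb
      have h1 : g * b * g⁻¹ = b := by
        rw [hb, hact g R q hR₁, hzq]
        exact ⟨v, by rw [hu]; ring⟩
      calc g * b = g * b * g⁻¹ * g := by group
        _ = b * g := by rw [h1]
    · rw [hb, hact g R q hR₁, ← zpow_neg, hzq]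
      exact ⟨v + 1, by rw [hu]; ring⟩
  have hgh : ∀ g h, g ∉ Subgroup.zpowers a → h ∉ Subgroup.zpowers a → g * h⁻¹ ∈ Subgroup.zpowers a := by
    intro g h hg hh
    apply hCb
    have h1 : h⁻¹ * b * h⁻¹⁻¹ = b⁻¹ := hgb h⁻¹ (by rwa [Subgroup.inv_mem_iff])
    have h2 := hgb g hg
    have h3 : (g * h⁻¹) * b * (g * h⁻¹)⁻¹ = b := by
      calc (g * h⁻¹) * b * (g * h⁻¹)⁻¹ = g * (h⁻¹ * b * h⁻¹⁻¹) * g⁻¹ := by group
        _ = g * b⁻¹ * g⁻¹ := by rw [h1]
        _ = (g * b * g⁻¹)⁻¹ := by group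
        _ = b := by rw [h2, inv_inv]
    calc g * h⁻¹ * b = (g * h⁻¹) * b * (g * h⁻¹)⁻¹ * (g * h⁻¹) := by group
      _ = b * (g * h⁻¹) := by rw [h3]
  have hss : s * s ∈ Subgroup.zpowers a := by
    have := hgh s s⁻¹ hsA (by rwa [Subgroup.inv_mem_iff])
    simpa using this
  have hcard : Nat.card P = 2 * 2 ^ (k + 2) := by
    have hidx : (Subgroup.zpowers a).index = 2 := by
      refine Subgroup.index_eq_two_iff.2 ⟨s⁻¹, fun g => ?_⟩
      by_cases hg : g ∈ Subgroup.zpowers a
      · right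
        refine ⟨hg, fun h => hsA ?_⟩
        have h2 : s = (g * s⁻¹)⁻¹ * g := by group
        rw [h2]
        exact Subgroup.mul_mem _ (Subgroup.inv_mem _ h) hg
      · left
        exact ⟨hgh g s hg hsA, hg⟩
    have h1 := Subgroup.card_mul_index (Subgroup.zpowers a)
    rw [Nat.card_zpowers, hno, hidx] at h1
    rw [← h1, mul_comm]
  have hdec : ∀ g : P, g ∈ Subgroup.zpowers a ∨ ∃ i : ℤ, g = a ^ i * s := by
    intro g
    by_cases hg : g ∈ Subgroup.zpowers a
    · exact Or.inl hg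
    · right
      obtain ⟨i, hi⟩ := hgh g s hg hsA
      refine ⟨i, ?_⟩
      change a ^ i = _ at hi
      rw [hi]
      group
  obtain ⟨R, hRs⟩ := hR s
  have hdiv := hsq s R hRs hss
  rcases int_split k R (by rw [← hq]; exact hdiv) with ⟨e, he, h4⟩ | ⟨e, he, h4⟩
  · exfalso
    obtain ⟨v, hv⟩ := h4
    apply hsA
    apply hCb
    have h1 : s * b * s⁻¹ = b := by
      rw [hb, hact s R q hRs, hzq]
      exact ⟨v, by linear_combination q * hv⟩
    calc s * b = s * b * s⁻¹ * s := by group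
      _ = b * s := by rw [h1]
  · rw [← hq] at he
    obtain ⟨m, hm⟩ := hss
    change a ^ m = _ at hm
    rcases Int.even_or_odd' e with ⟨f, rfl | rfl⟩
    · have hinv : s * a * s⁻¹ = a⁻¹ := by
        rw [hRs, ← zpow_neg_one, hzq]
        exact ⟨f, by rw [he]; ring⟩
      have hact' : ∀ j : ℤ, s * a ^ j * s⁻¹ = a ^ (-j) := by
        intro j
        rw [hact s (-1) j (by rw [zpow_neg_one]; exact hinv), neg_one_mul]
      have h1 : a ^ (-m) = a ^ m := by
        rw [← hact', hm]
        group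
      rw [hzq] at h1
      obtain ⟨c, hc⟩ := h1
      have h2 : 2 * q ∣ m := ⟨-c, by linarith⟩
      rcases hj m h2 with h3 | h3
      · have hss1 : s * s = 1 := by rw [← hm, h3]
        right
        left
        rcases k with _ | k'
        · exfalso
          apply hnoV s hss1 hsA
          have hq1 : q = 1 := by simpa using hq
          intro g
          have key : ∀ i : ℤ, a ^ i * s * (a ^ i)⁻¹ = s ∨ a ^ i * s * (a ^ i)⁻¹ = z * s := by
            intro i
            have h4 : a ^ i * s * (a ^ i)⁻¹ = a ^ (i + i) * s := by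
              have h5 : s * (a ^ i)⁻¹ * s⁻¹ = a ^ i := by
                rw [← zpow_neg, hact', neg_neg]
              calc a ^ i * s * (a ^ i)⁻¹ = a ^ i * (s * (a ^ i)⁻¹ * s⁻¹) * s := by group
                _ = _ := by rw [h5, zpow_add]
            rcases hj (i + i) ⟨i, by rw [hq1]; ring⟩ with h5 | h5
            · left
              rw [h4, h5, one_mul]
            · right
              rw [h4, h5]
          rcases hdec g with hg | ⟨i, hi⟩
          · obtain ⟨i, hi⟩ := hg
            change a ^ i = _ at hi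
            rw [← hi]
            exact key i
          · rw [hi]
            have h5 : a ^ i * s * s * (a ^ i * s)⁻¹ = a ^ i * s * (a ^ i)⁻¹ := by group
            rw [h5]
            exact key i
        · refine ⟨2 ^ (k' + 1 + 2), ?_, H15.dihedral_of a s _ (by positivity) hno hss1 hinv hcard hsA⟩
          calc 8 = 2 ^ 3 := by norm_num
            _ ≤ _ := Nat.pow_le_pow_right (by norm_num) (by omega)
      · left
        have hss2 : s * s = z := by rw [← hm, h3]
        have hu : H14.UniqueP 2 P := by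
          have hall : ∀ y : P, orderOf y = 2 → y = z := by
            intro y hy
            have hy1 : y ≠ 1 := by
              intro h
              rw [h] at hy
              simp at hy
            have hyy : y * y = 1 := by
              rw [← sq, ← hy]
              exact pow_orderOf_eq_one y
            rcases hdec y with hyA | ⟨i, hi⟩
            · exact (hinvA y hyA hyy).resolve_left hy1
            · exfalso
              apply hz1
              have h5 : y * y = z := by
                rw [hi]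
                calc a ^ i * s * (a ^ i * s) = a ^ i * (s * a ^ i * s⁻¹) * (s * s) := by group
                  _ = z := by rw [hact', hss2]; group
              rw [← h5, hyy]
          intro x y hx hy
          rw [hall y hy, ← hall x hx]
          exact Subgroup.mem_zpowers x
        obtain ⟨k₂, -, ⟨e₂⟩⟩ := H14.quaternion_of_uniqueP_two hP hu hnc
        exact ⟨2 ^ k₂, ⟨e₂⟩⟩
    · right
      right
      rcases k with _ | k'
      · exfalso
        have hq1 : q = 1 := by simpa using hq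
        rw [hq1] at he
        omega
      · obtain ⟨q₀, hq₀⟩ : ∃ q₀, q = 2 * q₀ := ⟨2 ^ k', by rw [hq]; ring⟩
        have hs' : s * a * s⁻¹ = a ^ (-1 + 2 * q) := by
          rw [hRs, hzq]
          exact ⟨f, by rw [he]; ring⟩
        have h1 : a ^ ((-1 + 2 * q) * m) = a ^ m := by
          rw [← hact s _ m hs', hm]
          group
        rw [hzq] at h1
        obtain ⟨c, hc⟩ := h1
        have h2 : 2 * q ∣ m * (q - 1) := by
          refine ⟨c, ?_⟩
          have h5 : 2 * (m * (q - 1)) = 2 * (2 * q * c) := by linear_combination hc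
          exact mul_left_cancel₀ two_ne_zero h5
        have h3 : 2 * q ∣ m := by
          rw [← hq2] at h2 ⊢
          exact (coprime_two_pow_of_odd (k' + 1 + 1) (q - 1)
            ⟨q₀ - 1, by rw [hq₀]; ring⟩).dvd_of_dvd_mul_right h2
        obtain ⟨y, hy2, hyA, hya⟩ : ∃ y, y * y = 1 ∧ y ∉ Subgroup.zpowers a ∧
            y * a * y⁻¹ = a ^ (-1 + 2 * q) := by
          rcases hj m h3 with h4' | h4'
          · exact ⟨s, by rw [← hm, h4'], hsA, hs'⟩
          · refine ⟨s * a, ?_, ?_, ?_⟩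
            · calc s * a * (s * a) = (s * a * s⁻¹) * (s * s) * a := by group
                _ = a ^ (-1 + 2 * q) * a ^ (2 * q) * a ^ (1 : ℤ) := by
                    rw [hs', ← hm, h4', hz, zpow_one]
                _ = a ^ (-1 + 2 * q + 2 * q + 1) := by rw [zpow_add _ (-1 + 2 * q + 2 * q), zpow_add _ (-1 + 2 * q)]
                _ = 1 := by
                    rw [hzp]
                    exact ⟨1, by ring⟩
            · intro h
              apply hsA
              have h5 : s = s * a * a⁻¹ := by group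
              rw [h5]
              exact Subgroup.mul_mem _ h (Subgroup.inv_mem _ (Subgroup.mem_zpowers a))
            · calc s * a * a * (s * a)⁻¹ = s * a * s⁻¹ := by group
                _ = _ := hs'
        have hy1 : y ≠ 1 := by
          intro h
          apply hyA
          rw [h]
          exact Subgroup.one_mem _
        refine ⟨k' + 1 + 2, by omega, ?_, a, y, hno, orderOf_eq_prime (by rw [sq]; exact hy2) hy1, ?_⟩
        · rw [hcard]
          ring
        · rw [hya]
          have h5 : ((2 ^ (k' + 1 + 2 - 1) - 1 : ℕ) : ℤ) = -1 + 2 * q := by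
            have h6 : k' + 1 + 2 - 1 = k' + 2 := by omega
            rw [h6, Nat.cast_sub Nat.one_le_two_pow]
            push_cast
            rw [hq]
            ring
          rw [← zpow_natCast, h5]

end

end Cfsg.Agent.H18
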